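import Cfsg.Agent.H4.Orders
import Cfsg.Agent.H2.Card
import Cfsg.Agent.H62.GraphPSL.Main

/-!
Splitting of the classes of involutory graph automorphisms of `PSL_n` into classes of inner
conjugacy, through the determinants of similarities.
-/

set_option autoImplicit false
set_option linter.unusedSectionVars false

namespace Cfsg.Agent.H62.GraphPSL

open Matrix Cfsg.Agent.H70.AutPSL

variable {n m : ℕ} {F : Type*} [Field F] [Finite F]

local notation "PSLn" => Matrix.ProjectiveSpecialLinearGroup (Fin n) F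
local notation "GLn" => GL (Fin n) F
local notation "Mn" => Matrix (Fin n) (Fin n) F
local notation "det'" => (Matrix.GeneralLinearGroup.det : GL (Fin n) F →* Fˣ)

theorem det_glConj {ι κ : Type} [Fintype ι] [DecidableEq ι] [Fintype κ] [DecidableEq κ]
    (L : (κ → F) ≃ₗ[F] (ι → F)) (h : GL κ F) :
    ((glConj L h : GL ι F) : Matrix ι ι F).det = (h : Matrix κ κ F).det := by
  show (LinearMap.toMatrix' (L.toLinearMap ∘ₗ Matrix.toLin' (h : Matrix κ κ F) ∘ₗ L.symm.toLinearMap)).det = _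
  rw [LinearMap.det_toMatrix', LinearMap.det_conj, LinearMap.det_toLin']

theorem det_sq_eq {G : GLn} {h : GLn} {c : Fˣ} (hc : (h : Mn)ᵀ * G * h = (c : F) • (G : Mn)) :
    (det' h) ^ 2 = c ^ n := by
  refine Units.ext (mul_right_cancel₀ (det_ne_zero G) ?_)
  have := congrArg Matrix.det hc
  rw [det_mul, det_mul, det_transpose, det_smul, Fintype.card_fin] at this
  simp only [Units.val_pow_eq_pow_val, Matrix.GeneralLinearGroup.val_det_apply]
  linear_combination this

theorem pow_le_map_det (G : GLn) :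
    (powMonoidHom n : Fˣ →* Fˣ).range ≤ (formSim (G : Mn)).map det' := by
  rintro _ ⟨b, rfl⟩
  refine ⟨scal n b, ⟨b * b, ?_⟩, det_scal b⟩
  rw [scal_coe, scal_conj, Units.val_mul]

/-- Odd dimension or characteristic two: the determinants are the `n`-th powers. -/
theorem map_det_odd_or_two (h : Odd n ∨ (2 : F) = 0) (G : GLn) :
    (formSim (G : Mn)).map det' = (powMonoidHom n : Fˣ →* Fˣ).range := by
  refine le_antisymm ?_ (pow_le_map_det G)
  rintro _ ⟨x, ⟨c, hc⟩, rfl⟩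
  have e := det_sq_eq hc
  rcases h with ⟨j, hj⟩ | h2
  · refine ⟨det' x / c ^ j, ?_⟩
    show (det' x / c ^ j) ^ n = det' x
    have hd : (det' x / c ^ j) ^ 2 = c := by
      rw [div_pow, e, ← pow_mul, show c ^ n = c ^ (2 * j + 1) from congrArg _ hj, pow_succ, mul_comm j 2]
      exact mul_div_cancel_left _ _
    calc (det' x / c ^ j) ^ n = ((det' x / c ^ j) ^ 2) ^ j * (det' x / c ^ j) := by
          rw [← pow_mul, ← pow_succ]; exact congrArg _ hj
      _ = det' x := by rw [hd, mul_div_cancel]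
  · haveI := char_two_of h2
    obtain ⟨d, hd⟩ := exists_sqrt_unit c
    refine ⟨d, Units.ext ?_⟩
    have hc' : c = d * d := Units.ext (by rw [Units.val_mul, hd])
    have e' : ((det' x : Fˣ) : F) ^ 2 = ((d : F) ^ n) ^ 2 := by
      have := congrArg (fun u : Fˣ => (u : F)) e
      simp only [Units.val_pow_eq_pow_val, hc', Units.val_mul] at this
      rw [this, mul_pow, pow_two]
    show ((d ^ n : Fˣ) : F) = _
    rw [Units.val_pow_eq_pow_val]
    exact ((sq_eq_sq_iff_eq_or_eq_neg.mp e').elim id fun e => by rw [e, CharTwo.neg_eq]).symm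

theorem exists_similar_alt {G : GLn} (hG : IsAltMat (G : Mn)) (c : Fˣ) :
    ∃ h : GLn, (h : Mn)ᵀ * G * h = (c : F) • (G : Mn) := by
  obtain ⟨P, hP⟩ := congr_of_alt (G := G) (G' := scal n c * G) hG (by
    rw [scal_mul_coe]
    intro v; rw [smul_mulVec, dotProduct_smul, hG v, smul_zero])
  exact ⟨P, hP.trans (scal_mul_coe c G)⟩

theorem exists_similar_sym (h2 : (2 : F) ≠ 0) (hnm : n = 2 * m) {G : GLn} (hG : (G : Mn)ᵀ = G) (c : Fˣ) :
    ∃ h : GLn, (h : Mn)ᵀ * G * h = (c : F) • (G : Mn) := by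
  exact congr_of_disc h2 hG hG c.ne_zero ⟨(c : F) ^ m * (G : Mn).det, by
    rw [show (c : F) ^ n = (c : F) ^ (2 * m) from congrArg _ hnm]; ring⟩

theorem exists_det_neg_one (h2 : (2 : F) ≠ 0) (hn : 1 ≤ n) {G : GLn} (hG : (G : Mn)ᵀ = G) :
    ∃ h : GLn, (h : Mn)ᵀ * G * h = (G : Mn) ∧ (h : Mn).det = -1 := by
  set o : Fin n := ⟨0, hn⟩
  set D : GLn := Matrix.GeneralLinearGroup.mkOfDetNeZero
    (diagonal fun i => if i = o then (G : Mn).det else 1) (by simp [det_diagonal, det_ne_zero G]) with hD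
  have hDc : (D : Mn) = diagonal fun i => if i = o then (G : Mn).det else 1 := rfl
  obtain ⟨P, hP⟩ := congr_of_disc h2 (G := G) (G' := D) hG (by rw [hDc, diagonal_transpose])
    one_ne_zero (c := 1) (by
      rw [one_pow, one_mul, hDc, det_diagonal, Finset.prod_ite_eq']
      simp only [Finset.mem_univ, if_true]
      exact ⟨_, rfl⟩)
  rw [one_smul] at hP
  set E : GLn := Matrix.GeneralLinearGroup.mkOfDetNeZero
    (diagonal fun i => if i = o then (-1 : F) else 1) (by simp [det_diagonal]) with hE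
  have hEc : (E : Mn) = diagonal fun i => if i = o then (-1 : F) else 1 := rfl
  have hED : (E : Mn)ᵀ * D * E = (D : Mn) := by
    rw [hEc, hDc, diagonal_transpose, diagonal_mul_diagonal, diagonal_mul_diagonal]
    congr 1; funext i; split_ifs <;> ring
  have hP1 : (P : Mn) * ((P⁻¹ : GLn) : Mn) = 1 := by
    rw [← Units.val_mul, mul_inv_cancel, Units.val_one]
  refine ⟨P * E * P⁻¹, ?_, ?_⟩
  · calc ((P * E * P⁻¹ : GLn) : Mn)ᵀ * G * ((P * E * P⁻¹ : GLn) : Mn)
        = ((P⁻¹ : GLn) : Mn)ᵀ * ((E : Mn)ᵀ * ((P : Mn)ᵀ * G * P) * E) * ((P⁻¹ : GLn) : Mn) := by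
          simp only [Units.val_mul, transpose_mul, Matrix.mul_assoc]
      _ = ((P⁻¹ : GLn) : Mn)ᵀ * ((P : Mn)ᵀ * G * P) * ((P⁻¹ : GLn) : Mn) := by rw [hP, hED]
      _ = ((P : Mn) * ((P⁻¹ : GLn) : Mn))ᵀ * G * ((P : Mn) * ((P⁻¹ : GLn) : Mn)) := by
          simp only [transpose_mul, Matrix.mul_assoc]
      _ = G := by rw [hP1, transpose_one, Matrix.one_mul, Matrix.mul_one]
  · rw [Units.val_mul, Units.val_mul, det_mul, det_mul, mul_right_comm, ← det_mul, hP1, det_one, one_mul,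
      hEc, det_diagonal, Finset.prod_ite_eq']
    simp

theorem map_det_sym (h2 : (2 : F) ≠ 0) (hm : 1 ≤ m) (hnm : n = 2 * m) {G : GLn} (hG : (G : Mn)ᵀ = G) :
    (formSim (G : Mn)).map det' =
      (powMonoidHom m : Fˣ →* Fˣ).range ⊔ Subgroup.zpowers (-1 : Fˣ) := by
  have hsign : ∀ (x : GLn) (c : Fˣ), (x : Mn)ᵀ * G * x = (c : F) • (G : Mn) →
      det' x = c ^ m ∨ det' x = -(c ^ m) := by
    intro x c hc
    have e := congrArg (fun u : Fˣ => (u : F)) (det_sq_eq hc)
    simp only [Units.val_pow_eq_pow_val] at e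
    rw [show (c : F) ^ n = ((c : F) ^ m) ^ 2 by rw [← pow_mul, mul_comm, hnm]] at e
    rcases sq_eq_sq_iff_eq_or_eq_neg.mp e with e | e
    · exact Or.inl (Units.ext (by rw [e, Units.val_pow_eq_pow_val]))
    · exact Or.inr (Units.ext (by rw [e, Units.val_neg, Units.val_pow_eq_pow_val]))
  obtain ⟨r, hr, hrd⟩ := exists_det_neg_one h2 (by omega) hG
  have hneg : (-1 : Fˣ) ∈ (formSim (G : Mn)).map det' :=
    ⟨r, formIso_le_formSim _ hr, Units.ext (by simp [hrd])⟩
  refine le_antisymm ?_ (sup_le ?_ (Subgroup.zpowers_le.mpr hneg))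
  · rintro _ ⟨x, ⟨c, hc⟩, rfl⟩
    have hp : c ^ m ∈ (powMonoidHom m : Fˣ →* Fˣ).range := ⟨c, rfl⟩
    rcases hsign x c hc with e | e
    · rw [e]; exact Subgroup.mem_sup_left hp
    · rw [e, ← mul_neg_one (c ^ m)]; exact Subgroup.mul_mem_sup hp (Subgroup.mem_zpowers _)
  · rintro _ ⟨c, rfl⟩
    obtain ⟨x, hx⟩ := exists_similar_sym h2 hnm hG c
    rcases hsign x c hx with e | e
    · exact ⟨x, ⟨c, hx⟩, e⟩
    · have h1 : det' x ∈ (formSim (G : Mn)).map det' := ⟨x, ⟨c, hx⟩, rfl⟩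
      have := mul_mem h1 hneg
      rwa [e, mul_neg_one, neg_neg] at this

theorem det_alt_similar (hnm : n = 2 * m) {G : GLn} (hG : IsAltMat (G : Mn)) {x : GLn} {c : Fˣ}
    (hc : (x : Mn)ᵀ * G * x = (c : F) • (G : Mn)) : det' x = c ^ m := by
  obtain ⟨L, hL⟩ := exists_equiv_symp' hnm hG
  set M : Matrix (Fin m ⊕ Fin m) (Fin m ⊕ Fin m) F :=
    ((glConj L x : GL (Fin m ⊕ Fin m) F) : Matrix (Fin m ⊕ Fin m) (Fin m ⊕ Fin m) F) with hM
  have hMJ : Mᵀ * Matrix.J (Fin m) F * M = (c : F) • Matrix.J (Fin m) F := by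
    refine ext_of_bilin (L.surjective.forall₂.mpr fun u v => ?_)
    rw [← dot_mulVec_congr, hM, glConj_mulVec, glConj_mulVec, smul_mulVec, dotProduct_smul]
    show Cfsg.sympForm m F _ _ = (c : F) • Cfsg.sympForm m F _ _
    rw [hL, hL, dot_mulVec_congr, hc, smul_mulVec, dotProduct_smul]
  set D : Matrix (Fin m ⊕ Fin m) (Fin m ⊕ Fin m) F := fromBlocks (((c⁻¹ : Fˣ) : F) • 1) 0 0 1 with hD
  have hS : M * D ∈ Matrix.symplecticGroup (Fin m) F := by
    rw [SymplecticGroup.mem_iff', transpose_mul,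
      show Dᵀ * Mᵀ * Matrix.J (Fin m) F * (M * D) = Dᵀ * (Mᵀ * Matrix.J (Fin m) F * M) * D by
        simp only [Matrix.mul_assoc], hMJ]
    simp [hD, Matrix.J, fromBlocks_transpose, fromBlocks_smul, fromBlocks_multiply, smul_smul]
  have e := SymplecticGroup.det_eq_one hS
  rw [det_mul, hD, det_fromBlocks_zero₂₁, det_smul, det_one, mul_one, mul_one, Fintype.card_fin, hM,
    det_glConj] at e
  refine Units.ext ?_
  rw [Units.val_pow_eq_pow_val, Matrix.GeneralLinearGroup.val_det_apply]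
  rw [Units.val_inv_eq_inv_val, inv_pow] at e
  have := c.ne_zero
  field_simp at e
  exact e

theorem map_det_alt (hnm : n = 2 * m) {G : GLn} (hG : IsAltMat (G : Mn)) :
    (formSim (G : Mn)).map det' = (powMonoidHom m : Fˣ →* Fˣ).range := by
  refine le_antisymm ?_ ?_
  · rintro _ ⟨x, ⟨c, hc⟩, rfl⟩
    exact ⟨c, (det_alt_similar hnm hG hc).symm⟩
  · rintro _ ⟨c, rfl⟩
    obtain ⟨x, hx⟩ := exists_similar_alt hG c
    exact ⟨x, ⟨c, hx⟩, det_alt_similar hnm hG hx⟩

theorem index_pow (k : ℕ) : (powMonoidHom k : Fˣ →* Fˣ).range.index = Nat.gcd k (Nat.card F - 1) := by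
  rw [IsCyclic.index_powMonoidHom_range, Nat.card_units, Nat.gcd_comm]

theorem index_pow_sup_neg_one (h2 : (2 : F) ≠ 0) :
    ((powMonoidHom m : Fˣ →* Fˣ).range ⊔ Subgroup.zpowers (-1 : Fˣ)).index =
      Nat.gcd (2 * m) (Nat.card F - 1) / 2 := by
  have hord : orderOf (-1 : Fˣ) = 2 := by
    rw [orderOf_eq_prime_iff]
    refine ⟨by simp, fun h => h2 ?_⟩
    have := congrArg (fun u : Fˣ => (u : F)) h
    simp only [Units.val_neg, Units.val_one] at this
    linear_combination -this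
  have hidx := (Subgroup.zpowers (-1 : Fˣ)).index_mul_card
  rw [Nat.card_zpowers, hord, Nat.card_units] at hidx
  rw [index_range_pow_sup, ← hidx, mul_comm _ 2, Nat.gcd_mul_left, Nat.mul_div_cancel_left _ two_pos]

/-! ### Orders of the centralisers -/

theorem card_centralizer (hn : 2 ≤ n) {G : GLn}
    (hmult : ∀ c : Fˣ, ∃ x : GLn, (x : Mn)ᵀ * G * x = (c : F) • (G : Mn)) :
    Nat.card ↥(Cfsg.inndiagPSL n F ⊓ Subgroup.centralizer {ofForm G}) = Nat.card (formIso (G : Mn)) := by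
  have hG0 := gl_ne_zero (by omega) G
  choose mu hmu using fun x : formSim (G : Mn) => x.2
  let μ : formSim (G : Mn) →* Fˣ := MonoidHom.mk' mu fun a b => by
    refine Units.ext (smul_left_injective F hG0 ?_)
    show (mu (a * b) : F) • (G : Mn) = ((mu a * mu b : Fˣ) : F) • (G : Mn)
    rw [← hmu, Subgroup.coe_mul, Units.val_mul, transpose_mul,
      show ((b : GLn) : Mn)ᵀ * ((a : GLn) : Mn)ᵀ * (G : Mn) * (((a : GLn) : Mn) * ((b : GLn) : Mn)) =
        ((b : GLn) : Mn)ᵀ * (((a : GLn) : Mn)ᵀ * (G : Mn) * ((a : GLn) : Mn)) * ((b : GLn) : Mn) by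
        simp only [Matrix.mul_assoc], hmu, Matrix.mul_smul, Matrix.smul_mul, hmu, smul_smul, Units.val_mul]
  have hμ : Function.Surjective μ := fun c => by
    obtain ⟨x, hx⟩ := hmult c
    refine ⟨⟨x, c, hx⟩, Units.ext (smul_left_injective F hG0 ?_)⟩
    exact ((hmu ⟨x, c, hx⟩).symm.trans hx)
  have hker : μ.ker = (formIso (G : Mn)).subgroupOf (formSim (G : Mn)) := by
    ext x
    rw [MonoidHom.mem_ker, Subgroup.mem_subgroupOf, mem_formIso]
    constructor
    · intro h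
      rw [hmu x, show mu x = 1 from h, Units.val_one, one_smul]
    · intro h
      refine Units.ext (smul_left_injective F hG0 ?_)
      show (mu x : F) • (G : Mn) = ((1 : Fˣ) : F) • (G : Mn)
      rw [← hmu, h, Units.val_one, one_smul]
  have h1 := (μ.ker.index_mul_card).symm
  rw [Subgroup.index_ker, MonoidHom.range_eq_top.mpr hμ, Subgroup.card_top, hker,
    Nat.card_congr (Subgroup.subgroupOfEquivOfLe (formIso_le_formSim _)).toEquiv] at h1
  set ρ : formSim (G : Mn) →* MulAut PSLn := (innDiag n F).comp (formSim (G : Mn)).subtype with hρ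
  have hrange : ρ.range = Cfsg.inndiagPSL n F ⊓ Subgroup.centralizer {ofForm G} := by
    rw [inf_centralizer_eq hn, hρ, MonoidHom.range_comp, Subgroup.range_subtype]
  let sc : Fˣ →* formSim (G : Mn) := MonoidHom.mk' (fun a => ⟨scal n a, a * a, by
    rw [scal_coe, scal_conj, Units.val_mul]⟩) fun a b => Subtype.ext (map_mul (Matrix.GeneralLinearGroup.scalar (Fin n)) a b)
  have hsc : Function.Injective sc := by
    intro a b e
    have := congrArg (fun x : formSim (G : Mn) => ((x : GLn) : Mn) ⟨0, by omega⟩ ⟨0, by omega⟩) e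
    exact Units.ext (by simpa [sc, scal_coe] using this)
  have hker2 : ρ.ker = sc.range := by
    ext x
    rw [MonoidHom.mem_ker, hρ, MonoidHom.comp_apply, innDiag_eq_one_iff hn]
    exact ⟨fun ⟨a, ha⟩ => ⟨a, Subtype.ext ha.symm⟩, fun ⟨a, ha⟩ => ⟨a, (congrArg Subtype.val ha).symm⟩⟩
  have h2 := (ρ.ker.index_mul_card).symm
  rw [Subgroup.index_ker, hrange, hker2, ← Nat.card_congr (MonoidHom.ofInjective hsc).toEquiv,
    Nat.card_units] at h2
  rw [Nat.card_units] at h1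
  have hpos : 0 < Nat.card F - 1 := by
    have := Finite.one_lt_card (α := F); omega
  refine Nat.eq_of_mul_eq_mul_right hpos ?_
  rw [← h2, h1, mul_comm]

/-- In odd characteristic the centraliser of a symmetric form is not `PGSp`. -/
theorem not_equiv_pgsp (h2 : (2 : F) ≠ 0) (hm : 2 ≤ m) (hnm : n = 2 * m) {G : GLn}
    (hG : (G : Mn)ᵀ = G) :
    ¬ Nonempty (↥(Cfsg.inndiagPSL n F ⊓ Subgroup.centralizer {ofForm G}) ≃* Cfsg.PGSp m F) := by
  classical
  haveI := Fintype.ofFinite F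
  rintro ⟨e⟩
  have hn2 : 2 ≤ n := by omega
  obtain ⟨G₁, -, h1a⟩ := exists_altForm (F := F) hnm
  obtain ⟨e₁⟩ := centralizer_symp hn2 hnm h1a
  have hcard := Nat.card_congr (e.trans e₁.symm).toEquiv
  rw [card_centralizer hn2 (exists_similar_sym h2 hnm hG),
    card_centralizer hn2 (exists_similar_alt h1a)] at hcard
  obtain ⟨L₁, hL₁⟩ := exists_equiv_symp' hnm h1a
  obtain ⟨eJ⟩ := formIso_equiv (G := (G₁ : Mn)) (K := Matrix.J (Fin m) F) L₁ hL₁
  obtain ⟨eS⟩ := formIso_J_equiv (F := F) (m := m)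
  rw [Nat.card_congr (eJ.trans eS).toEquiv, H2.card_sp, Nat.card_eq_fintype_card (α := F)] at hcard
  -- the orthogonal order
  have key : ∀ {ι : Type} [Fintype ι] [DecidableEq ι] (Q : QuadraticForm F (ι → F))
      (L : (Fin n → F) ≃ₗ[F] (ι → F)), (∀ v, Q (L v) = v ⬝ᵥ (G : Mn) *ᵥ v) →
      Nat.card (formIso (G : Mn)) = Nat.card (H4.qIsoms Q) := by
    intro ι _ _ Q L hL
    rw [← H4.card_isometryGroup Q rfl]
    have hmem : ∀ x : GLn, glConj L x ∈ Cfsg.isometryGroup F (⇑Q) ↔ x ∈ formIso (G : Mn) := by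
      intro x
      rw [mem_formIso]
      constructor
      · intro hx
        refine ext_of_quad h2 (by simp [transpose_mul, hG, Matrix.mul_assoc]) hG fun v => ?_
        have := hx (L v) (L v)
        simp only [Units.coeHom_apply, glConj_mulVec] at this
        rwa [hL, hL, dot_mulVec_congr] at this
      · intro hx u _
        show Q _ = Q u
        obtain ⟨v, rfl⟩ := L.surjective u
        rw [Units.coeHom_apply, glConj_mulVec, hL, hL, dot_mulVec_congr, hx]
    have hmap : (formIso (G : Mn)).map (glConj L).toMonoidHom = Cfsg.isometryGroup F (⇑Q) := by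
      refine le_antisymm ?_ fun k hk => ?_
      · rintro _ ⟨x, hx, rfl⟩
        exact (hmem x).mpr hx
      · exact ⟨(glConj L).symm k, (hmem _).mp (by simpa using hk), by simp⟩
    exact Nat.card_congr (((glConj L).subgroupMap _).trans (MulEquiv.subgroupCongr hmap)).toEquiv
  obtain ⟨j, rfl⟩ : ∃ j, m = j + 1 := ⟨m - 1, by omega⟩
  set q := Fintype.card F with hq
  have hq2 : 2 ≤ q := Fintype.one_lt_card
  set P : ℤ := ∏ i ∈ Finset.range j, ((q : ℤ) ^ (2 * (i + 1)) - 1) with hP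
  have hP1 : 1 ≤ P := by
    rw [hP]
    refine Finset.one_le_prod fun i _ => ?_
    have : (4 : ℤ) ≤ (q : ℤ) ^ (2 * (i + 1)) := by
      calc (4 : ℤ) = 2 ^ 2 := by norm_num
        _ ≤ (q : ℤ) ^ 2 := pow_le_pow_left₀ (by norm_num) (by exact_mod_cast hq2) 2
        _ ≤ _ := pow_le_pow_right₀ (by omega) (by omega)
    linarith
  obtain ⟨ε, hε, hO⟩ : ∃ ε : ℤ, (ε = 1 ∨ ε = -1) ∧ (Nat.card (formIso (G : Mn)) : ℤ) =
      2 * (q : ℤ) ^ ((j + 1) * j) * ((q : ℤ) ^ (j + 1) - ε) * P := by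
    by_cases hd : IsSquare ((-1 : F) ^ (j + 1) * (G : Mn).det)
    · obtain ⟨L, hL⟩ := equiv_plus h2 hnm hG hd
      refine ⟨1, Or.inl rfl, ?_⟩
      rw [key (H4.qPlus (j + 1) F) L (fun v => by rw [H4.coe_qPlus]; exact hL v), H4.card_qIsoms_qPlus]
    · obtain ⟨a, b, L, hab, hL⟩ := equiv_minus h2 hnm hG hd
      refine ⟨-1, Or.inr rfl, ?_⟩
      revert L hL
      rw [Nat.add_sub_cancel]
      intro L hL
      rw [key (H4.qMinus j F a b) L (fun v => by rw [H4.coe_qMinus]; exact hL v),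
        H4.card_qIsoms_qMinus hab (H4.disc_ne_zero hab), sub_neg_eq_add]
  rw [hcard, Nat.cast_mul, H4.cast_prod_sub_one, Finset.prod_range_succ, ← hP, Nat.cast_pow] at hO
  have hX : (q : ℤ) ^ 2 ≤ (q : ℤ) ^ (j + 1) := pow_le_pow_right₀ (by omega) (by omega)
  have hX4 : (4 : ℤ) ≤ (q : ℤ) ^ (j + 1) := le_trans (by nlinarith) hX
  rw [show (q : ℤ) ^ ((j + 1) ^ 2) = (q : ℤ) ^ ((j + 1) * j) * (q : ℤ) ^ (j + 1) by
      rw [← pow_add]; ring_nf,
    show (q : ℤ) ^ (2 * (j + 1)) = ((q : ℤ) ^ (j + 1)) ^ 2 by rw [← pow_mul, mul_comm]] at hO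
  have hA : (0 : ℤ) < (q : ℤ) ^ ((j + 1) * j) * P := mul_pos (by positivity) (by linarith)
  generalize hX' : (q : ℤ) ^ (j + 1) = X at hO hX4
  have : X * (X ^ 2 - 1) = 2 * (X - ε) :=
    mul_left_cancel₀ hA.ne' (by linear_combination hO)
  rcases hε with rfl | rfl <;> nlinarith [mul_le_mul_of_nonneg_left hX4 (by linarith : (0 : ℤ) ≤ X)]

/-- **The number of classes under inner conjugation.** -/
theorem split_result [Fintype F] {p f : ℕ} [Fact p.Prime] (hF : Fintype.card F = p ^ f) (hf : 1 ≤ f)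
    (hn : 3 ≤ n) {γ : MulAut PSLn} (hγ : Cfsg.IsGraphAutClassPSL γ) (hγ2 : orderOf γ = 2) :
    ((Even n ∧ Odd p ∧ Nonempty (↥(Cfsg.inndiagPSL n F ⊓ Subgroup.centralizer {γ}) ≃* Cfsg.PGSp (n / 2) F)) →
      Cfsg.splitClassCount (Cfsg.inndiagPSL n F) (Cfsg.Inn PSLn) γ = Nat.gcd (n / 2) (p ^ f - 1)) ∧
    ((Even n ∧ Odd p ∧ ¬ Nonempty (↥(Cfsg.inndiagPSL n F ⊓ Subgroup.centralizer {γ}) ≃* Cfsg.PGSp (n / 2) F)) →
      Cfsg.splitClassCount (Cfsg.inndiagPSL n F) (Cfsg.Inn PSLn) γ = Nat.gcd n (p ^ f - 1) / 2) ∧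
    (¬ (Even n ∧ Odd p) →
      Cfsg.splitClassCount (Cfsg.inndiagPSL n F) (Cfsg.Inn PSLn) γ = Nat.gcd n (p ^ f - 1)) := by
  have hn2 : 2 ≤ n := by omega
  obtain ⟨G, rfl, hG⟩ := exists_ofForm_two hn hγ hγ2
  rw [← hF, ← Nat.card_eq_fintype_card, splitClassCount_det hn2, comap_centralizer_eq hn2]
  have h2odd : Odd p → (2 : F) ≠ 0 := fun hp => H4.two_ne_zero_of_odd_card (by rw [hF]; exact hp.pow)
  refine ⟨fun ⟨he, hp, hiso⟩ => ?_, fun ⟨he, hp, hiso⟩ => ?_, fun hnot => ?_⟩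
  · obtain ⟨m, rfl⟩ := he
    rw [show (m + m) / 2 = m by omega] at hiso ⊢
    have hA : IsAltMat (G : Matrix (Fin (m + m)) (Fin (m + m)) F) := by
      rcases hG with hG | hG
      · exact absurd hiso (not_equiv_pgsp (h2odd hp) (by omega) (by omega) hG)
      · exact isAltMat_of_skew (h2odd hp) hG
    rw [map_det_alt (m := m) (by omega) hA, index_pow]
  · obtain ⟨m, rfl⟩ := he
    rw [show (m + m) / 2 = m by omega] at hiso
    have hs : (G : Matrix (Fin (m + m)) (Fin (m + m)) F)ᵀ = G := by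
      rcases hG with hG | hG
      · exact hG
      · exact absurd (centralizer_symp hn2 (by omega) (isAltMat_of_skew (h2odd hp) hG)) hiso
    rw [map_det_sym (h2odd hp) (m := m) (by omega) (by omega) hs, index_pow_sup_neg_one (h2odd hp), two_mul]
  · have h : Odd n ∨ (2 : F) = 0 := by
      rcases Nat.even_or_odd n with he | ho
      · refine Or.inr ?_
        have hp : p = 2 := (Fact.out : p.Prime).eq_two_or_odd'.resolve_right fun hp => hnot ⟨he, hp⟩
        have hc : (Fintype.card F : F) = 0 := Nat.cast_card_eq_zero F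
        rw [hF, hp, Nat.cast_pow] at hc
        exact_mod_cast (pow_eq_zero_iff (by omega : f ≠ 0)).mp hc
      · exact Or.inl ho
    rw [map_det_odd_or_two h, index_pow]

end Cfsg.Agent.H62.GraphPSL
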